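import Cfsg.Agent.H2.NC.Neck

set_option autoImplicit false
open Finset

namespace Cfsg.Agent.H2.NC

variable {G : Type*} [Group G] [Fintype G] (p : ℕ) [hp : Fact p.Prime]

theorem not_dvd_orderOf_pow (g : G) : ¬ p ∣ orderOf (g ^ (p ^ (Fintype.card G))) := by
  have ho : orderOf g ≠ 0 := (orderOf_pos g).ne'
  obtain ⟨v, o, hpo, hvo⟩ := Nat.exists_eq_pow_mul_and_not_dvd ho p hp.out.ne_one
  have h1 : p ^ v ≤ Fintype.card G := by
    refine le_trans ?_ (orderOf_le_card_univ (x := g))
    rw [hvo]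
    apply Nat.le_mul_of_pos_right
    rcases Nat.eq_zero_or_pos o with h | h
    · subst h; simp at hpo
    · exact h
  have h2 : v ≤ Fintype.card G := le_trans (Nat.lt_pow_self hp.out.one_lt).le h1
  have h3 : orderOf (g ^ (p ^ (Fintype.card G))) ∣ o := by
    apply orderOf_dvd_of_pow_eq_one
    rw [← pow_mul]
    apply orderOf_dvd_iff_pow_eq_one.1
    rw [hvo]
    exact Nat.mul_dvd_mul (pow_dvd_pow p h2) (dvd_refl o)
  exact fun h => hpo (h.trans h3)

/-- the sum of the coefficients is multiplicative -/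
noncomputable def aug (R : Type*) [CommRing R] : MonoidAlgebra R G →ₐ[R] R :=
  MonoidAlgebra.lift R R G 1

theorem aug_apply {R : Type*} [CommRing R] (x : MonoidAlgebra R G) :
    aug R x = ∑ g, x.coeff g := by
  classical
  rw [aug, MonoidAlgebra.lift_apply]
  rw [Finsupp.sum_fintype]
  · simp
  · simp

theorem mul_eq_sum_left {R : Type*} [CommRing R] (x r : MonoidAlgebra R G) :
    x * r = ∑ g, x.coeff g • (MonoidAlgebra.single g 1 * r) := by
  classical
  conv_lhs => rw [eq_sum_single x]
  rw [Finset.sum_mul]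
  refine Finset.sum_congr rfl fun g _ => ?_
  rw [← smul_mul_assoc, MonoidAlgebra.smul_single]
  simp

theorem mul_eq_sum_right {R : Type*} [CommRing R] (x r : MonoidAlgebra R G) :
    r * x = ∑ g, x.coeff g • (r * MonoidAlgebra.single g 1) := by
  classical
  conv_lhs => rw [eq_sum_single x]
  rw [Finset.mul_sum]
  refine Finset.sum_congr rfl fun g _ => ?_
  rw [← mul_smul_comm, MonoidAlgebra.smul_single]
  simp

theorem exists_idem (t : MonoidAlgebra ℤ_[p] G) :
    ∃ ε s : MonoidAlgebra ℤ_[p] G, ε * ε = ε ∧ ε = t * s ∧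
      (∀ (C : G → Prop) [DecidablePred C], (∀ g h, C h → C (g⁻¹ * h * g)) →
        (∀ g, C g → p ∣ orderOf g) → ∑ g ∈ univ.filter C, ε.coeff g = 0) ∧
      ((∑ g, t.coeff g = 1) → ∑ g, ε.coeff g = 1) := by
  classical
  let φ : MonoidAlgebra ℤ_[p] G → (G → ℤ_[p]) := fun x => ⇑x.coeff
  have hinj : Function.Injective φ := by
    intro x y h
    apply MonoidAlgebra.ext
    exact DFunLike.coe_injective h
  have hsurj : Function.Surjective φ := by
    intro f
    refine ⟨MonoidAlgebra.ofCoeff (Finsupp.equivFunOnFinite.symm f), ?_⟩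
    funext g
    rfl
  letI : TopologicalSpace (MonoidAlgebra ℤ_[p] G) := TopologicalSpace.induced φ inferInstance
  have hind : Topology.IsInducing φ := ⟨rfl⟩
  have hcont : Continuous φ := continuous_induced_dom
  haveI : T2Space (MonoidAlgebra ℤ_[p] G) := T2Space.of_injective_continuous hinj hcont
  haveI : CompactSpace (MonoidAlgebra ℤ_[p] G) := by
    refine ⟨?_⟩
    rw [hind.isCompact_iff, Set.image_univ_of_surjective hsurj]
    exact isCompact_univ
  have hco : ∀ g, Continuous (fun x : MonoidAlgebra ℤ_[p] G => x.coeff g) := fun g =>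
    (continuous_apply g).comp hcont
  have hmr : ∀ r : MonoidAlgebra ℤ_[p] G, Continuous (fun x => x * r) := by
    intro r
    rw [continuous_induced_rng]
    refine continuous_pi fun h => ?_
    have : (fun x : MonoidAlgebra ℤ_[p] G => (x * r).coeff h)
        = fun x => ∑ g, x.coeff g * (MonoidAlgebra.single g 1 * r).coeff h := by
      funext x
      rw [mul_eq_sum_left]
      simp
    show Continuous (fun x : MonoidAlgebra ℤ_[p] G => (x * r).coeff h)
    rw [this]
    exact continuous_finsetSum _ fun g _ => (hco g).mul continuous_const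
  have hml : ∀ r : MonoidAlgebra ℤ_[p] G, Continuous (fun x => r * x) := by
    intro r
    rw [continuous_induced_rng]
    refine continuous_pi fun h => ?_
    have : (fun x : MonoidAlgebra ℤ_[p] G => (r * x).coeff h)
        = fun x => ∑ g, x.coeff g * (r * MonoidAlgebra.single g 1).coeff h := by
      funext x
      rw [mul_eq_sum_right]
      simp
    show Continuous (fun x : MonoidAlgebra ℤ_[p] G => (r * x).coeff h)
    rw [this]
    exact continuous_finsetSum _ fun g _ => (hco g).mul continuous_const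
  let P : ℕ → Set (MonoidAlgebra ℤ_[p] G) := fun k => {x | ∃ m : ℕ, 1 ≤ m ∧ x = t ^ (p ^ k * m)}
  have hPmul : ∀ k x y, x ∈ P k → y ∈ P k → x * y ∈ P k := by
    rintro k x y ⟨m, hm, rfl⟩ ⟨m', hm', rfl⟩
    exact ⟨m + m', by omega, by rw [← pow_add, mul_add]⟩
  have hcl : ∀ k x y, x ∈ closure (P k) → y ∈ closure (P k) → x * y ∈ closure (P k) := by
    intro k x y hx hy
    have h1 : ∀ y ∈ P k, x * y ∈ closure (P k) := by
      intro y hy
      exact map_mem_closure (f := fun z => z * y) (hmr y) hx (fun z hz => hPmul k z y hz hy)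
    have h2 := map_mem_closure (hml x) hy (t := closure (P k)) (fun z hz => h1 z hz)
    rwa [closure_closure] at h2
  have hne : (⋂ k, closure (P k)).Nonempty := by
    refine IsCompact.nonempty_iInter_of_sequence_nonempty_isCompact_isClosed
      (fun k => closure (P k)) ?_ ?_ isClosed_closure.isCompact (fun _ => isClosed_closure)
    · intro k
      apply closure_mono
      rintro x ⟨m, hm, rfl⟩
      exact ⟨p * m, Nat.mul_pos hp.out.pos hm, by rw [pow_succ, mul_assoc]⟩
    · intro k
      exact ⟨t ^ (p ^ k * 1), subset_closure ⟨1, le_refl _, rfl⟩⟩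
  obtain ⟨ε, hε, hεε⟩ := exists_idempotent_in_compact_subsemigroup hmr (⋂ k, closure (P k)) hne
    (isClosed_iInter fun _ => isClosed_closure).isCompact (by
      intro x hx y hy
      rw [Set.mem_iInter] at hx hy ⊢
      exact fun k => hcl k x y (hx k) (hy k))
  rw [Set.mem_iInter] at hε
  -- membership in closed sets
  have hmem : ∀ (k : ℕ) (K : Set (MonoidAlgebra ℤ_[p] G)), IsClosed K → P k ⊆ K → ε ∈ K :=
    fun k K hK hsub => hK.closure_subset_iff.2 hsub (hε k)
  obtain ⟨s, hs⟩ : ε ∈ Set.range (fun x => t * x) := by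
    refine hmem 0 _ (isCompact_range (hml t)).isClosed ?_
    rintro x ⟨m, hm, rfl⟩
    refine ⟨t ^ (m - 1), ?_⟩
    show t * t ^ (m - 1) = _
    rw [← pow_succ']
    congr 1
    simp; omega
  refine ⟨ε, s, hεε, hs.symm, ?_, ?_⟩
  · intro C _ hC hCp
    have hcs : Continuous (fun x : MonoidAlgebra ℤ_[p] G => ∑ g ∈ univ.filter C, x.coeff g) :=
      continuous_finsetSum _ fun g _ => hco g
    have hdiv : ∀ k : ℕ, ‖∑ g ∈ univ.filter C, ε.coeff g‖ ≤ (p : ℝ) ^ (-((k + 1 : ℕ) : ℤ)) := by
      intro k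
      have hclosed : IsClosed {x : MonoidAlgebra ℤ_[p] G |
          ‖∑ g ∈ univ.filter C, x.coeff g‖ ≤ (p : ℝ) ^ (-((k + 1 : ℕ) : ℤ))} :=
        isClosed_le (continuous_norm.comp hcs) continuous_const
      refine hmem (k + Fintype.card G) _ hclosed ?_
      rintro x ⟨m, hm, rfl⟩
      show ‖_‖ ≤ _
      rw [PadicInt.norm_le_pow_iff_mem_span_pow, Ideal.mem_span_singleton]
      have h1 := class_sum_pow_dvd p hp.out (t ^ m) C hC (k + Fintype.card G) k (by omega) (by
        intro g hg
        rw [Nat.add_sub_cancel_left] at hg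
        exact not_dvd_orderOf_pow p g (hCp _ hg))
      rw [← pow_mul, mul_comm m] at h1
      exact h1
    by_contra hne0
    have hpos : 0 < ‖∑ g ∈ univ.filter C, ε.coeff g‖ := norm_pos_iff.2 hne0
    have hp1 : (1 : ℝ) < p := by exact_mod_cast hp.out.one_lt
    obtain ⟨k, hk⟩ := exists_pow_lt_of_lt_one hpos (inv_lt_one_of_one_lt₀ hp1)
    have h2 := hdiv k
    have h3 : (p : ℝ) ^ (-((k + 1 : ℕ) : ℤ)) = ((p : ℝ)⁻¹) ^ (k + 1) := by
      rw [zpow_neg, zpow_natCast, inv_pow]
    rw [h3] at h2
    have h4 : ((p : ℝ)⁻¹) ^ (k + 1) ≤ ((p : ℝ)⁻¹) ^ k :=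
      pow_le_pow_of_le_one (by positivity) (inv_lt_one_of_one_lt₀ hp1).le (Nat.le_succ k)
    linarith
  · intro haug
    have hclosed : IsClosed {x : MonoidAlgebra ℤ_[p] G | ∑ g, x.coeff g = 1} :=
      isClosed_eq (continuous_finsetSum _ fun g _ => hco g) continuous_const
    refine hmem 0 _ hclosed ?_
    rintro x ⟨m, hm, rfl⟩
    show ∑ g, _ = _
    rw [← aug_apply, map_pow, aug_apply, haug, one_pow]

end Cfsg.Agent.H2.NC
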