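import Cfsg.Agent.H2.NC.Rep
import Cfsg.Agent.H75.Tools

set_option autoImplicit false
open Finset

namespace Cfsg.Agent.H2.NC

open scoped ComplexConjugate
open Cfsg Cfsg.Agent.CharBase Cfsg.Agent.H75

universe u
variable {G : Type u} [Group G] [Fintype G]

theorem orderOf_eq_of_isConj {g x : G} (h : IsConj g x) : orderOf g = orderOf x := by
  obtain ⟨c, rfl⟩ := isConj_iff.1 h
  exact (MulEquiv.orderOf_eq (MulAut.conj c) g).symm

open Classical in
theorem data {p : ℕ} [hp : Fact p.Prime] (Q R : Subgroup G) (hQ : ¬ p ∣ Nat.card Q)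
    (hR : ¬ p ∣ Nat.card R) :
    ∃ (n u v : IrrCharacter G → ℕ) (c : G → ℂ),
      (∀ χ, n χ ≤ u χ) ∧ (∀ χ, n χ ≤ v χ) ∧
      (∀ χ : IrrCharacter G, (n χ : ℂ) = ∑ g, c g * (χ : G → ℂ) g) ∧
      (∀ χ : IrrCharacter G, (Nat.card Q : ℂ) * (u χ : ℂ) = ∑ y : Q, (χ : G → ℂ) y) ∧
      (∀ χ : IrrCharacter G, (Nat.card R : ℂ) * (v χ : ℂ) = ∑ y : R, (χ : G → ℂ) y) ∧
      (∑ g, c g = 1) ∧
      (∀ x : G, p ∣ orderOf x → ∑ g ∈ univ.filter (fun g => IsConj g x), c g = 0) := by
  obtain ⟨σ⟩ := nonempty_emb p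
  obtain ⟨a, ha⟩ := exists_unit (p := p) _ hQ
  obtain ⟨b, hb⟩ := exists_unit (p := p) _ hR
  obtain ⟨ε, s, hεε, hε, hcl, haug⟩ := exists_idem p (eH Q a * eH R b)
  have key : ∀ (H : Subgroup G) (w : ℤ_[p]), (Nat.card H : ℤ_[p]) * w = 1 →
      ∀ {V : Type} [AddCommGroup V] [Module ℂ V] [FiniteDimensional ℂ V] (ρ : Representation ℂ G V),
      (Nat.card H : ℂ) * (Module.finrank ℂ (LinearMap.range (Psi σ ρ (eH H w))) : ℂ)
        = ∑ y : H, ρ.character y := by
    intro H w hw V _ _ _ ρ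
    rw [← trace_idem σ ρ (eH_idem H w hw), trace_Psi,
      sum_eH H w (fun g z => σ z * ρ.character g) (by intro g; simp), Finset.mul_sum]
    refine Finset.sum_congr rfl fun y _ => ?_
    rw [← mul_assoc]
    have := congrArg σ hw
    rw [map_mul, map_natCast, map_one] at this
    rw [this, one_mul]
  have hrep : ∀ χ : IrrCharacter G, ∃ (m : ℕ) (ρ : Representation ℂ G (Fin m → ℂ)),
      ρ.character = (χ : G → ℂ) := fun χ => by
    obtain ⟨m, ρ, -, h⟩ := χ.2
    exact ⟨m, ρ, h⟩
  choose m ρ hρ using hrep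
  refine ⟨fun χ => Module.finrank ℂ (LinearMap.range (Psi σ (ρ χ) ε)),
    fun χ => Module.finrank ℂ (LinearMap.range (Psi σ (ρ χ) (eH Q a))),
    fun χ => Module.finrank ℂ (LinearMap.range (Psi σ (ρ χ) (eH R b))),
    fun g => σ (ε.coeff g), ?_, ?_, ?_, ?_, ?_, ?_, ?_⟩
  · intro χ
    show Module.finrank ℂ (LinearMap.range (Psi σ (ρ χ) ε)) ≤ _
    rw [hε, mul_assoc]
    exact rank_le_left σ (ρ χ) _ _
  · intro χ
    show Module.finrank ℂ (LinearMap.range (Psi σ (ρ χ) ε)) ≤ _
    rw [hε, mul_assoc]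
    exact (rank_le_right σ (ρ χ) _ _).trans (rank_le_left σ (ρ χ) _ _)
  · intro χ
    show ((Module.finrank ℂ (LinearMap.range (Psi σ (ρ χ) ε)) : ℕ) : ℂ) = _
    rw [← trace_idem σ (ρ χ) hεε, trace_Psi, hρ]
  · intro χ
    have := key Q a ha (ρ χ)
    rw [hρ] at this
    exact this
  · intro χ
    have := key R b hb (ρ χ)
    rw [hρ] at this
    exact this
  · rw [← map_sum, haug, map_one]
    rw [← aug_apply, map_mul, aug_apply, aug_apply]
    have h1 : ∀ (H : Subgroup G) (w : ℤ_[p]), (Nat.card H : ℤ_[p]) * w = 1 →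
        ∑ g, (eH H w).coeff g = 1 := by
      intro H w hw
      rw [sum_eH H w (fun _ z => z) (by intro g; rfl), Finset.sum_const, Finset.card_univ,
        ← Nat.card_eq_fintype_card, nsmul_eq_mul, hw]
    rw [h1 Q a ha, h1 R b hb, one_mul]
  · intro x hx
    rw [← map_sum]
    have h2 := hcl (fun g => IsConj g x) (by
      intro g h hh
      refine IsConj.trans ?_ hh
      rw [isConj_iff]
      exact ⟨g, by group⟩) (by
      intro g hg
      rwa [orderOf_eq_of_isConj hg])
    rw [h2, map_zero]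

theorem sum_irr (χ : IrrCharacter G) (one : IrrCharacter G) (h1 : ∀ g, (one : G → ℂ) g = 1) :
    ∑ x, (χ : G → ℂ) x = if χ = one then (Nat.card G : ℂ) else 0 := by
  classical
  have h := classInner_irr χ one
  unfold classInner at h
  simp only [h1, map_one, mul_one] at h
  have h0 : (Nat.card G : ℂ) ≠ 0 := by exact_mod_cast Nat.card_pos.ne'
  rw [inv_mul_eq_iff_eq_mul₀ h0] at h
  rw [h]
  split_ifs <;> simp

open Classical in
theorem main {p : ℕ} [hp : Fact p.Prime] (Q R : Subgroup G) (P : ℕ) (hQ : ¬ p ∣ Nat.card Q)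
    (hR : ¬ p ∣ Nat.card R) (hco : (Nat.card Q).Coprime (Nat.card R))
    (hcard : Nat.card G = P * (Nat.card Q * Nat.card R))
    (hS : Nat.card {g : G // ¬ p ∣ orderOf g} = Nat.card Q * Nat.card R) :
    ∃ N : Subgroup G, N.Normal ∧ ∀ g, g ∈ N ↔ ¬ p ∣ orderOf g := by
  haveI : Fintype (IrrCharacter G) := Fintype.ofFinite _
  obtain ⟨n, u, v, c, hnu, hnv, hn, hu, hv, hc1, hc0⟩ := data Q R hQ hR
  set S : Finset G := univ.filter (fun g => ¬ p ∣ orderOf g) with hSdef
  have hScard : (S.card : ℝ) = Nat.card Q * Nat.card R := by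
    rw [← Nat.cast_mul, ← hS, Nat.card_eq_fintype_card, Fintype.card_subtype]
  have hG0 : 0 < Nat.card G := Nat.card_pos
  have hP0 : 0 < P := by
    rcases Nat.eq_zero_or_pos P with h | h
    · rw [h, zero_mul] at hcard; omega
    · exact h
  let one : IrrCharacter G := ⟨fun _ => 1, CharBase.isIrrCharacter_one⟩
  have hone : ∀ g, (one : G → ℂ) g = 1 := fun _ => rfl
  let Φ : G → ℂ := fun x => ∑ χ : IrrCharacter G, (n χ : ℂ) * (χ : G → ℂ) x
  -- F1
  have F1 : ∀ x, p ∣ orderOf x → Φ x = 0 := by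
    intro x hx
    have e1 : Φ x = ∑ g, c g * ∑ χ : IrrCharacter G, (χ : G → ℂ) g * (χ : G → ℂ) x := by
      show ∑ χ : IrrCharacter G, (n χ : ℂ) * (χ : G → ℂ) x = _
      simp only [hn, Finset.sum_mul, Finset.mul_sum]
      rw [Finset.sum_comm]
      refine Finset.sum_congr rfl fun g _ => Finset.sum_congr rfl fun χ _ => ?_
      ring
    have e2 : ∀ g, ∑ χ : IrrCharacter G, (χ : G → ℂ) g * (χ : G → ℂ) x
        = if IsConj g x⁻¹ then (Nat.card (Subgroup.centralizer ({x⁻¹} : Set G)) : ℂ) else 0 := by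
      intro g
      have e3 : ∑ χ : IrrCharacter G, (χ : G → ℂ) g * (χ : G → ℂ) x
          = conj (∑ χ : IrrCharacter G, (χ : G → ℂ) x⁻¹ * conj ((χ : G → ℂ) g)) := by
        rw [map_sum]
        refine Finset.sum_congr rfl fun χ _ => ?_
        rw [map_mul, Complex.conj_conj, irr_inv, Complex.conj_conj, mul_comm]
      rw [e3, column_orthogonality]
      by_cases h : IsConj g x⁻¹
      · rw [if_pos h.symm, if_pos h]; simp
      · rw [if_neg (fun h' => h h'.symm), if_neg h]; simp
    rw [e1]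
    simp only [e2, mul_ite, mul_zero]
    rw [← Finset.sum_filter, ← Finset.sum_mul, hc0 x⁻¹ (by rwa [orderOf_inv]), zero_mul]
  -- F2
  have hn1 : n one = 1 := by
    have := hn one
    simp only [hone, mul_one, hc1] at this
    exact_mod_cast this
  have F2 : ∑ x, Φ x = Nat.card G := by
    show ∑ x, ∑ χ : IrrCharacter G, (n χ : ℂ) * (χ : G → ℂ) x = _
    rw [Finset.sum_comm]
    have : ∀ χ : IrrCharacter G, ∑ x, (n χ : ℂ) * (χ : G → ℂ) x
        = if χ = one then (Nat.card G : ℂ) else 0 := by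
      intro χ
      rw [← Finset.mul_sum, sum_irr χ one hone]
      by_cases h : χ = one
      · rw [if_pos h, h, hn1]; simp
      · rw [if_neg h]; simp
    rw [Finset.sum_congr rfl (fun χ _ => this χ), Finset.sum_ite_eq']
    simp
  -- F3
  have F3 : ∑ x, ‖Φ x‖ ^ 2 = (Nat.card G : ℝ) * ∑ χ : IrrCharacter G, (n χ : ℝ) ^ 2 := by
    have e1 : classInner Φ Φ = ∑ χ : IrrCharacter G, (n χ : ℂ) ^ 2 := by
      have hΦ : Φ = ∑ χ : IrrCharacter G, (n χ : ℂ) • (χ : G → ℂ) := by
        funext x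
        simp [Φ, Finset.sum_apply]
      rw [hΦ, classInner_sum_left]
      refine Finset.sum_congr rfl fun χ _ => ?_
      rw [classInner_sum_right, Finset.sum_eq_single χ]
      · rw [classInner_smul_left, classInner_smul_right, classInner_irr_self]
        simp [pow_two]
      · intro ψ _ hψ
        rw [classInner_smul_left, classInner_smul_right, classInner_irr_of_ne (Ne.symm hψ)]
        simp
      · intro h; exact absurd (Finset.mem_univ _) h
    unfold classInner at e1
    have h0 : (Nat.card G : ℂ) ≠ 0 := by exact_mod_cast hG0.ne'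
    rw [inv_mul_eq_iff_eq_mul₀ h0] at e1
    have e2 : ((∑ x, ‖Φ x‖ ^ 2 : ℝ) : ℂ) = ∑ x, Φ x * conj (Φ x) := by
      push_cast
      refine Finset.sum_congr rfl fun x _ => ?_
      rw [Complex.mul_conj, Complex.normSq_eq_norm_sq]
      push_cast; rfl
    have e3 : ((∑ x, ‖Φ x‖ ^ 2 : ℝ) : ℂ)
        = (((Nat.card G : ℝ) * ∑ χ : IrrCharacter G, (n χ : ℝ) ^ 2 : ℝ) : ℂ) := by
      rw [e2, e1]; push_cast; rfl
    exact_mod_cast e3
  -- F4
  have hQ0 : (Nat.card Q : ℂ) ≠ 0 := by exact_mod_cast Nat.card_pos.ne'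
  have hR0 : (Nat.card R : ℂ) ≠ 0 := by exact_mod_cast Nat.card_pos.ne'
  have F4 : ∑ χ : IrrCharacter G, (u χ : ℝ) * (v χ : ℝ) = P := by
    have e1 : (Nat.card Q : ℂ) * (Nat.card R : ℂ) * ∑ χ : IrrCharacter G, (u χ : ℂ) * (v χ : ℂ)
        = Nat.card G := by
      have e2 : (Nat.card Q : ℂ) * (Nat.card R : ℂ) * ∑ χ : IrrCharacter G, (u χ : ℂ) * (v χ : ℂ)
          = ∑ χ : IrrCharacter G, (∑ y : Q, (χ : G → ℂ) y) * conj (∑ z : R, (χ : G → ℂ) z) := by
        rw [Finset.mul_sum]
        refine Finset.sum_congr rfl fun χ _ => ?_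
        rw [← hu, ← hv, map_mul, Complex.conj_natCast, Complex.conj_natCast]
        ring
      rw [e2]
      have e3 : ∀ χ : IrrCharacter G, (∑ y : Q, (χ : G → ℂ) y) * conj (∑ z : R, (χ : G → ℂ) z)
          = ∑ y : Q, ∑ z : R, (χ : G → ℂ) y * conj ((χ : G → ℂ) z) := by
        intro χ
        rw [map_sum, Finset.sum_mul_sum]
      simp only [e3]
      rw [Finset.sum_comm]
      have e4 : ∀ y : Q, ∑ χ : IrrCharacter G, ∑ z : R, (χ : G → ℂ) y * conj ((χ : G → ℂ) z)
          = if y = 1 then (Nat.card G : ℂ) else 0 := by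
        intro y
        rw [Finset.sum_comm]
        have e5 : ∀ z : R, ∑ χ : IrrCharacter G, (χ : G → ℂ) y * conj ((χ : G → ℂ) z)
            = if z = 1 ∧ y = 1 then (Nat.card G : ℂ) else 0 := by
          intro z
          rw [column_orthogonality]
          by_cases hconj : IsConj (y : G) (z : G)
          · have ho : orderOf (y : G) = orderOf (z : G) := orderOf_eq_of_isConj hconj
            have hy : orderOf (y : G) ∣ Nat.card Q := by
              rw [Subgroup.orderOf_coe]; exact orderOf_dvd_natCard y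
            have hz : orderOf (z : G) ∣ Nat.card R := by
              rw [Subgroup.orderOf_coe]; exact orderOf_dvd_natCard z
            have h1 : orderOf (y : G) = 1 := by
              apply Nat.eq_one_of_dvd_coprimes hco hy
              rw [ho]; exact hz
            have hy1 : (y : G) = 1 := orderOf_eq_one_iff.1 h1
            have hz1 : (z : G) = 1 := orderOf_eq_one_iff.1 (ho ▸ h1)
            rw [if_pos hconj, if_pos ⟨Subtype.ext hz1, Subtype.ext hy1⟩, hy1]
            congr 1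
            have : (Subgroup.centralizer ({1} : Set G)) = ⊤ := by
              rw [Subgroup.centralizer_eq_top_iff_subset]
              intro x hx
              rw [Set.mem_singleton_iff] at hx
              rw [hx]; exact Subgroup.one_mem _
            rw [this, Subgroup.card_top]
          · rw [if_neg hconj, if_neg]
            rintro ⟨rfl, rfl⟩
            exact hconj (IsConj.refl _)
        rw [Finset.sum_congr rfl (fun z _ => e5 z)]
        by_cases hy : y = 1
        · simp [hy]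
        · simp [hy]
      rw [Finset.sum_congr rfl (fun y _ => e4 y)]
      simp
    have e6 : (∑ χ : IrrCharacter G, (u χ : ℂ) * (v χ : ℂ)) = P := by
      have : (Nat.card G : ℂ) = P * (Nat.card Q * Nat.card R) := by
        exact_mod_cast congrArg (Nat.cast : ℕ → ℂ) hcard
      rw [this] at e1
      have h0 : (Nat.card Q : ℂ) * (Nat.card R : ℂ) ≠ 0 := mul_ne_zero hQ0 hR0
      apply mul_left_cancel₀ h0
      rw [e1]; ring
    exact_mod_cast e6
  -- conclusion on `S`
  have F5 : ∑ x ∈ S, ‖Φ x - P‖ ^ 2 ≤ 0 := by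
    have e1 : ∀ x, ‖Φ x - P‖ ^ 2 = ‖Φ x‖ ^ 2 - 2 * P * (Φ x).re + (P : ℝ) ^ 2 := by
      intro x
      rw [← Complex.normSq_eq_norm_sq, ← Complex.normSq_eq_norm_sq, Complex.normSq_apply,
        Complex.normSq_apply]
      simp
      ring
    simp only [e1]
    rw [Finset.sum_add_distrib, Finset.sum_sub_distrib, ← Finset.mul_sum, Finset.sum_const,
      nsmul_eq_mul, hScard]
    have e2 : ∑ x ∈ S, ‖Φ x‖ ^ 2 = ∑ x, ‖Φ x‖ ^ 2 := by
      rw [hSdef]
      apply Finset.sum_filter_of_ne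
      intro x _ hx hdiv
      apply hx
      rw [F1 x hdiv]; simp
    have e3 : ∑ x ∈ S, (Φ x).re = Nat.card G := by
      have : ∑ x ∈ S, (Φ x).re = ∑ x, (Φ x).re := by
        rw [hSdef]
        apply Finset.sum_filter_of_ne
        intro x _ hx hdiv
        apply hx
        rw [F1 x hdiv]; simp
      rw [this, ← Complex.re_sum, F2]; simp
    rw [e2, e3, F3]
    have e4 : ∑ χ : IrrCharacter G, (n χ : ℝ) ^ 2 ≤ P := by
      rw [← F4]
      refine Finset.sum_le_sum fun χ _ => ?_
      rw [pow_two]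
      have h1 : (n χ : ℝ) ≤ u χ := by exact_mod_cast hnu χ
      have h2 : (n χ : ℝ) ≤ v χ := by exact_mod_cast hnv χ
      exact mul_le_mul h1 h2 (by positivity) (by positivity)
    have e5 : (Nat.card G : ℝ) = P * (Nat.card Q * Nat.card R) := by
      exact_mod_cast congrArg (Nat.cast : ℕ → ℝ) hcard
    have e6 : (0 : ℝ) ≤ Nat.card G := by positivity
    have e7 := mul_le_mul_of_nonneg_left e4 e6
    nlinarith
  have F6 : ∀ x, ¬ p ∣ orderOf x → Φ x = P := by
    intro x hx
    have hxS : x ∈ S := by rw [hSdef]; simp [hx]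
    have h1 := (Finset.sum_eq_zero_iff_of_nonneg (fun y _ => by positivity)).1
      (le_antisymm F5 (Finset.sum_nonneg fun y _ => by positivity)) x hxS
    have h2 : ‖Φ x - P‖ = 0 := by simpa using h1
    exact sub_eq_zero.1 (norm_eq_zero.1 h2)
  have h1S : ¬ p ∣ orderOf (1 : G) := by rw [orderOf_one, Nat.dvd_one]; exact hp.out.ne_one
  let N : Subgroup G := ⨅ χ : {χ : IrrCharacter G // n χ ≠ 0}, charKer (irr_isCharacter χ.1)
  have hN : N.Normal := Subgroup.normal_iInf_normal fun χ => charKer_normal _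
  refine ⟨N, hN, fun g => ?_⟩
  have hmem : g ∈ N ↔ ∀ χ : IrrCharacter G, n χ ≠ 0 → (χ : G → ℂ) g = (χ : G → ℂ) 1 := by
    rw [Subgroup.mem_iInf]
    constructor
    · intro h χ hχ
      exact (mem_charKer _ g).1 (h ⟨χ, hχ⟩)
    · intro h χ
      exact (mem_charKer _ g).2 (h χ.1 χ.2)
  constructor
  · intro hg hdiv
    rw [hmem] at hg
    have h2 : Φ g = Φ 1 := by
      refine Finset.sum_congr rfl fun χ _ => ?_
      by_cases hχ : n χ = 0
      · rw [hχ]; simp
      · rw [hg χ hχ]
    rw [F1 g hdiv, F6 1 h1S] at h2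
    have : (P : ℂ) ≠ 0 := by exact_mod_cast hP0.ne'
    exact this h2.symm
  · intro hg
    rw [hmem]
    have h2 : Φ g = Φ 1 := by rw [F6 g hg, F6 1 h1S]
    have hdeg : ∀ χ : IrrCharacter G, ((χ : G → ℂ) g).re ≤ (deg χ : ℝ) := by
      intro χ
      obtain ⟨m, hm, hle⟩ := norm_le_of_isCharacter (irr_isCharacter χ) g
      have : m = deg χ := by
        have := deg_spec χ
        rw [hm] at this
        exact_mod_cast this
      subst this
      exact (Complex.re_le_norm _).trans hle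
    have h3 : ∑ χ : IrrCharacter G, (n χ : ℝ) * ((deg χ : ℝ) - ((χ : G → ℂ) g).re) = 0 := by
      have h4 := congrArg Complex.re h2
      have h5 : (Φ g).re = ∑ χ : IrrCharacter G, (n χ : ℝ) * ((χ : G → ℂ) g).re := by
        show (∑ χ : IrrCharacter G, (n χ : ℂ) * (χ : G → ℂ) g).re = _
        rw [Complex.re_sum]
        refine Finset.sum_congr rfl fun χ _ => ?_
        simp
      have h6 : (Φ 1).re = ∑ χ : IrrCharacter G, (n χ : ℝ) * (deg χ : ℝ) := by
        show (∑ χ : IrrCharacter G, (n χ : ℂ) * (χ : G → ℂ) 1).re = _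
        rw [Complex.re_sum]
        refine Finset.sum_congr rfl fun χ _ => ?_
        rw [deg_spec]
        simp
      simp only [mul_sub, Finset.sum_sub_distrib]
      rw [← h5, ← h6, h4, sub_self]
    intro χ hχ
    have h7 := (Finset.sum_eq_zero_iff_of_nonneg (fun ψ _ => mul_nonneg (Nat.cast_nonneg _)
      (sub_nonneg.2 (hdeg ψ)))).1 h3 χ (Finset.mem_univ _)
    have h8 : ((χ : G → ℂ) g).re = deg χ := by
      rcases mul_eq_zero.1 h7 with h | h
      · exact absurd (by exact_mod_cast h) hχ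
      · linarith
    obtain ⟨m, hm, hle⟩ := norm_le_of_isCharacter (irr_isCharacter χ) g
    have hmd : m = deg χ := by
      have := deg_spec χ
      rw [hm] at this
      exact_mod_cast this
    subst hmd
    have h9 : ‖(χ : G → ℂ) g‖ ^ 2 ≤ (deg χ : ℝ) ^ 2 := by
      exact pow_le_pow_left₀ (norm_nonneg _) hle 2
    rw [← Complex.normSq_eq_norm_sq, Complex.normSq_apply, h8] at h9
    have h10 : ((χ : G → ℂ) g).im = 0 := by nlinarith [mul_self_nonneg ((χ : G → ℂ) g).im]
    rw [deg_spec]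
    apply Complex.ext
    · rw [h8]; simp
    · rw [h10]; simp

end Cfsg.Agent.H2.NC
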