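import Mathlib

set_option autoImplicit false
open Finset

namespace Cfsg.Agent.H2.NC

/-- the sum of an invariant function under a permutation of `p`-power order, zero at the points
with short period, is divisible by a power of `p` -/
theorem dvd_sum_of_perm {X : Type*} [Fintype X] {R : Type*} [CommRing R] (σ : Equiv.Perm X)
    (p n k : ℕ) (hp : p.Prime) (hσ : ∀ x, (σ ^ (p ^ n)) x = x) (f : X → R)
    (hf : ∀ x, f (σ x) = f x) (h0 : ∀ x, (σ ^ (p ^ k)) x = x → f x = 0) :
    ((p : R)) ^ (k + 1) ∣ ∑ x, f x := by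
  classical
  have hz : ∀ (i : ℤ) (x : X), f ((σ ^ i) x) = f x := by
    intro i
    induction i using Int.induction_on with
    | zero => intro x; simp
    | succ i ih => intro x; rw [zpow_add_one, Equiv.Perm.mul_apply, ih, hf]
    | pred i ih =>
      intro x
      rw [zpow_sub_one, Equiv.Perm.mul_apply, ih]
      have := hf (σ⁻¹ x)
      rw [← this]; simp
  let s : Setoid X := MulAction.orbitRel (Subgroup.zpowers σ) X
  rw [← Finset.sum_fiberwise univ (fun x => (Quotient.mk s x)) f]
  refine Finset.dvd_sum ?_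
  intro q _
  induction q using Quotient.inductionOn with
  | h x0 =>
  have hiff : ∀ x, Quotient.mk s x = Quotient.mk s x0 ↔ x ∈ MulAction.orbit (Subgroup.zpowers σ) x0 := by
    intro x
    rw [Quotient.eq]
    exact MulAction.orbitRel_apply
  have hconst : ∀ x, Quotient.mk s x = Quotient.mk s x0 → f x = f x0 := by
    intro x hx
    obtain ⟨⟨g, i, rfl⟩, hg⟩ := (hiff x).1 hx
    rw [← hg]
    exact hz i x0
  rw [Finset.sum_congr rfl (fun x hx => hconst x (Finset.mem_filter.1 hx).2), Finset.sum_const,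
    nsmul_eq_mul]
  by_cases hz0 : f x0 = 0
  · rw [hz0, mul_zero]; exact dvd_zero _
  have hcard : (univ.filter (fun x => Quotient.mk s x = Quotient.mk s x0)).card
      = Function.minimalPeriod (σ • · : X → X) x0 := by
    rw [MulAction.minimalPeriod_eq_card, ← Set.toFinset_card]
    congr 1
    ext x
    simp only [mem_filter, mem_univ, true_and, Set.mem_toFinset]
    exact hiff x
  have hit : ∀ (m : ℕ) (x : X), ((σ • · : X → X)^[m]) x = (σ ^ m) x := by
    intro m x
    rw [smul_iterate]; rfl
  have hper : Function.minimalPeriod (σ • · : X → X) x0 ∣ p ^ n := by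
    apply Function.IsPeriodicPt.minimalPeriod_dvd
    show ((σ • · : X → X)^[p ^ n]) x0 = x0
    rw [hit]; exact hσ x0
  obtain ⟨j, hj, hje⟩ := (Nat.dvd_prime_pow hp).1 hper
  have hjk : k < j := by
    by_contra hlt
    push_neg at hlt
    apply hz0
    apply h0
    have h1 : Function.IsPeriodicPt (σ • · : X → X) (p ^ k) x0 := by
      have h2 := Function.isPeriodicPt_minimalPeriod (σ • · : X → X) x0
      rw [hje] at h2
      exact h2.trans_dvd (pow_dvd_pow p hlt)
    have h3 : ((σ • · : X → X)^[p ^ k]) x0 = x0 := h1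
    rwa [hit] at h3
  rw [hcard, hje]
  apply Dvd.dvd.mul_right
  push_cast
  exact pow_dvd_pow _ hjk

/-! ### words -/

section Words

variable {G : Type*}

/-- product of the first `n` letters -/
def pr [Monoid G] (W : ℕ → G) (n : ℕ) : G := ((List.range n).map W).prod

theorem pr_zero [Monoid G] (W : ℕ → G) : pr W 0 = 1 := rfl

theorem pr_succ [Monoid G] (W : ℕ → G) (n : ℕ) : pr W (n + 1) = pr W n * W n := by
  simp [pr, List.range_succ]

theorem pr_add [Monoid G] (W : ℕ → G) (a b : ℕ) :
    pr W (a + b) = pr W a * pr (fun i => W (a + i)) b := by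
  induction b with
  | zero => simp [pr_zero]
  | succ b ih => rw [← add_assoc, pr_succ, ih, pr_succ, mul_assoc]

theorem pr_succ' [Monoid G] (W : ℕ → G) (n : ℕ) :
    pr W (n + 1) = W 0 * pr (fun i => W (i + 1)) n := by
  rw [add_comm, pr_add]
  congr 1
  · simp [pr_succ, pr_zero]
  · congr 1; funext i; rw [add_comm]

theorem pr_periodic [Monoid G] (W : ℕ → G) (d : ℕ) (h : ∀ i, W (i + d) = W i) (m : ℕ) :
    pr W (d * m) = (pr W d) ^ m := by
  induction m with
  | zero => simp [pr_zero]
  | succ m ih =>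
    have h2 : (fun i => W (d + i)) = W := by funext i; rw [add_comm, h]
    rw [Nat.mul_succ, add_comm, pr_add, h2, ih, pow_succ']

variable {R : Type*} [CommRing R]

theorem eq_sum_single [Group G] [Fintype G] (y : MonoidAlgebra R G) :
    y = ∑ g, MonoidAlgebra.single g (y.coeff g) := by
  classical
  ext g
  simp [Finsupp.single_apply]

theorem pow_eq_sum_fin [Group G] [Fintype G] (y : MonoidAlgebra R G) (N : ℕ) :
    y ^ N = ∑ w : Fin N → G, MonoidAlgebra.single ((List.ofFn w).prod) (∏ i, y.coeff (w i)) := by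
  induction N with
  | zero => simp [MonoidAlgebra.one_def]
  | succ N ih =>
    rw [pow_succ', ih]
    conv_lhs => rw [eq_sum_single y]
    rw [Finset.sum_mul_sum]
    rw [← (Fin.consEquiv (fun _ : Fin (N + 1) => G)).sum_comp, Fintype.sum_prod_type]
    refine Finset.sum_congr rfl fun g _ => Finset.sum_congr rfl fun w _ => ?_
    rw [MonoidAlgebra.single_mul_single]
    simp [Fin.consEquiv, List.ofFn_succ, Fin.prod_univ_succ]

theorem pow_eq_sum [Group G] [Fintype G] (y : MonoidAlgebra R G) (N : ℕ) [NeZero N] :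
    y ^ N = ∑ w : ZMod N → G,
      MonoidAlgebra.single (pr (fun i : ℕ => w i) N) (∏ i, y.coeff (w i)) := by
  obtain ⟨M, rfl⟩ : ∃ M, N = M + 1 := ⟨N - 1, by have := NeZero.ne N; omega⟩
  rw [pow_eq_sum_fin]
  refine Finset.sum_congr rfl fun w _ => ?_
  congr 1
  rw [pr]
  congr 1
  apply List.ext_getElem
  · simp
  · intro i h1 h2
    have hi : i < M + 1 := by simpa using h1
    have h3 : ((i : ℕ) : ZMod (M + 1)) = (⟨i, hi⟩ : Fin (M + 1)) := by
      apply Fin.ext
      have := ZMod.val_natCast_of_lt hi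
      exact this
    simp only [List.getElem_ofFn, List.getElem_map, List.getElem_range]
    rw [h3]

/-- rotation of cyclic words -/
def rot (G : Type*) (N : ℕ) : Equiv.Perm (ZMod N → G) where
  toFun w := fun i => w (i + 1)
  invFun w := fun i => w (i - 1)
  left_inv w := by funext i; simp
  right_inv w := by funext i; simp

theorem rot_pow (N m : ℕ) (w : ZMod N → G) (i : ZMod N) : ((rot G N) ^ m) w i = w (i + m) := by
  induction m generalizing w i with
  | zero => simp
  | succ m ih =>
    rw [pow_succ, Equiv.Perm.mul_apply, ih]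
    show w (i + m + 1) = _
    push_cast
    rw [add_assoc]

theorem pr_rot [Group G] (N : ℕ) [NeZero N] (w : ZMod N → G) :
    pr (fun i : ℕ => (rot G N w) i) N = (w 0)⁻¹ * pr (fun i : ℕ => w i) N * w 0 := by
  have h1 := pr_succ (fun i : ℕ => w i) N
  have h2 := pr_succ' (fun i : ℕ => w i) N
  rw [h1] at h2
  have h3 : (fun i : ℕ => (rot G N w) i) = fun i : ℕ => w ((i + 1 : ℕ) : ZMod N) := by
    funext i
    show w ((i : ZMod N) + 1) = _
    push_cast; rfl
  rw [h3]
  simp only [Nat.cast_zero, ZMod.natCast_self] at h2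
  rw [eq_comm, mul_assoc, h2]
  group

/-- class sums of coefficients of `p`-power powers -/
theorem class_sum_pow_dvd [Group G] [Fintype G] (p : ℕ) (hp : p.Prime) (y : MonoidAlgebra R G)
    (C : G → Prop) [DecidablePred C] (hC : ∀ g h, C h → C (g⁻¹ * h * g)) (n k : ℕ) (hk : k ≤ n)
    (hCs : ∀ g : G, ¬ C (g ^ (p ^ (n - k)))) :
    ((p : R)) ^ (k + 1) ∣ ∑ g ∈ univ.filter C, (y ^ (p ^ n)).coeff g := by
  classical
  haveI : NeZero (p ^ n) := ⟨pow_ne_zero _ hp.ne_zero⟩
  have hsum : ∑ g ∈ univ.filter C, (y ^ (p ^ n)).coeff g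
      = ∑ w : ZMod (p ^ n) → G,
        if C (pr (fun i : ℕ => w i) (p ^ n)) then ∏ i, y.coeff (w i) else 0 := by
    rw [pow_eq_sum y (p ^ n)]
    simp only [MonoidAlgebra.coeff_sum, MonoidAlgebra.coeff_single, Finsupp.finsetSum_apply,
      Finsupp.single_apply]
    rw [Finset.sum_comm]
    refine Finset.sum_congr rfl fun w _ => ?_
    rw [Finset.sum_ite_eq]
    simp
  rw [hsum]
  refine dvd_sum_of_perm (rot G (p ^ n)) p n k hp ?_ _ ?_ ?_
  · intro w
    funext i
    rw [rot_pow]
    simp
  · intro w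
    have h1 : C (pr (fun i : ℕ => (rot G (p ^ n) w) i) (p ^ n)) ↔ C (pr (fun i : ℕ => w i) (p ^ n)) := by
      rw [pr_rot]
      refine ⟨fun h => ?_, fun h => hC _ _ h⟩
      have := hC (w 0)⁻¹ _ h
      simpa [mul_assoc] using this
    have h2 : ∏ i, y.coeff (rot G (p ^ n) w i) = ∏ i, y.coeff (w i) := by
      show ∏ i, y.coeff (w (i + 1)) = _
      exact Equiv.prod_comp (Equiv.addRight (1 : ZMod (p ^ n))) (fun i => y.coeff (w i))
    simp only [h1, h2]
  · intro w hw
    rw [if_neg]
    intro hc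
    have hper : ∀ i : ℕ, w ((i + p ^ k : ℕ) : ZMod (p ^ n)) = w (i : ZMod (p ^ n)) := by
      intro i
      have := congrFun hw (i : ZMod (p ^ n))
      rw [rot_pow] at this
      rw [← this]
      push_cast; rfl
    have h3 := pr_periodic (fun i : ℕ => w i) (p ^ k) hper (p ^ (n - k))
    rw [← pow_add, Nat.add_sub_cancel' hk] at h3
    rw [h3] at hc
    exact hCs _ hc

end Words

end Cfsg.Agent.H2.NC
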