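import Cfsg.Agent.H2.NC.Idem
import Cfsg.Agent.H2.NC.Emb

set_option autoImplicit false
open Finset

namespace Cfsg.Agent.H2.NC

universe u
variable {G : Type u} [Group G] [Fintype G] {p : ℕ} [hp : Fact p.Prime]

section Psi
variable (σ : ℤ_[p] →+* ℂ) {V : Type*} [AddCommGroup V] [Module ℂ V] (ρ : Representation ℂ G V)

/-- the action of the `p`-adic group ring on a complex representation through `σ` -/
noncomputable def Psi : MonoidAlgebra ℤ_[p] G →+* Module.End ℂ V :=
  MonoidAlgebra.liftNCRingHom ((algebraMap ℂ (Module.End ℂ V)).comp σ) ρ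
    (fun x y => Algebra.commutes (σ x) (ρ y))

theorem Psi_apply (x : MonoidAlgebra ℤ_[p] G) : Psi σ ρ x = ∑ g, σ (x.coeff g) • ρ g := by
  classical
  conv_lhs => rw [eq_sum_single x]
  rw [map_sum]
  refine Finset.sum_congr rfl fun g _ => ?_
  refine (MonoidAlgebra.liftNCRingHom_single _ _ _ _ _).trans ?_
  ext v
  simp

variable [FiniteDimensional ℂ V]

theorem trace_Psi (x : MonoidAlgebra ℤ_[p] G) :
    LinearMap.trace ℂ V (Psi σ ρ x) = ∑ g, σ (x.coeff g) * ρ.character g := by
  rw [Psi_apply, map_sum]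
  refine Finset.sum_congr rfl fun g _ => ?_
  rw [map_smul, smul_eq_mul]
  rfl

theorem trace_idem {x : MonoidAlgebra ℤ_[p] G} (hx : x * x = x) :
    LinearMap.trace ℂ V (Psi σ ρ x) = Module.finrank ℂ (LinearMap.range (Psi σ ρ x)) := by
  have h1 : IsIdempotentElem (Psi σ ρ x) := by
    show Psi σ ρ x * Psi σ ρ x = _
    rw [← map_mul, hx]
  exact (LinearMap.IsProj.trace (LinearMap.IsIdempotentElem.isProj_range _ h1))

theorem rank_le_left (t s : MonoidAlgebra ℤ_[p] G) :
    Module.finrank ℂ (LinearMap.range (Psi σ ρ (t * s)))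
      ≤ Module.finrank ℂ (LinearMap.range (Psi σ ρ t)) := by
  rw [map_mul]
  exact Submodule.finrank_mono (LinearMap.range_comp_le_range _ _)

theorem rank_le_right (t s : MonoidAlgebra ℤ_[p] G) :
    Module.finrank ℂ (LinearMap.range (Psi σ ρ (t * s)))
      ≤ Module.finrank ℂ (LinearMap.range (Psi σ ρ s)) := by
  rw [map_mul]
  have : LinearMap.range (Psi σ ρ t * Psi σ ρ s) = (LinearMap.range (Psi σ ρ s)).map (Psi σ ρ t) :=
    LinearMap.range_comp _ _
  rw [this]
  exact Submodule.finrank_map_le _ _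

end Psi

/-- the averaging idempotent of a `p'`-subgroup -/
noncomputable def eH (H : Subgroup G) (u : ℤ_[p]) : MonoidAlgebra ℤ_[p] G := by
  classical
  exact ∑ y : H, MonoidAlgebra.single (y : G) u

theorem eH_idem (H : Subgroup G) (u : ℤ_[p]) (hu : (Nat.card H : ℤ_[p]) * u = 1) :
    eH H u * eH H u = eH H u := by
  classical
  unfold eH
  rw [Finset.sum_mul_sum]
  have h1 : ∀ y : H, ∑ z : H, (MonoidAlgebra.single (y : G) u : MonoidAlgebra ℤ_[p] G)
      * MonoidAlgebra.single (z : G) u = ∑ z : H, MonoidAlgebra.single (z : G) (u * u) := by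
    intro y
    rw [← Equiv.sum_comp (Equiv.mulLeft y) (fun z : H => (MonoidAlgebra.single (z : G) (u * u) :
      MonoidAlgebra ℤ_[p] G))]
    refine Finset.sum_congr rfl fun z _ => ?_
    rw [MonoidAlgebra.single_mul_single]
    rfl
  rw [Finset.sum_congr rfl (fun y _ => h1 y), Finset.sum_const, Finset.card_univ,
    ← Nat.card_eq_fintype_card, Finset.smul_sum]
  refine Finset.sum_congr rfl fun z _ => ?_
  rw [MonoidAlgebra.smul_single]
  congr 1
  rw [nsmul_eq_mul, ← mul_assoc, hu, one_mul]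

open Classical in
theorem sum_eH (H : Subgroup G) (u : ℤ_[p]) {M : Type*} [AddCommMonoid M] (F : G → ℤ_[p] → M)
    (h0 : ∀ g, F g 0 = 0) : ∑ g, F g ((eH H u).coeff g) = ∑ y : H, F y u := by
  classical
  have hco : ∀ g, (eH H u).coeff g = if g ∈ H then u else 0 := by
    intro g
    unfold eH
    rw [MonoidAlgebra.coeff_sum, Finsupp.finsetSum_apply]
    simp only [MonoidAlgebra.coeff_single, Finsupp.single_apply]
    by_cases hg : g ∈ H
    · rw [if_pos hg, Finset.sum_eq_single ⟨g, hg⟩]
      · simp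
      · intro b _ hb
        rw [if_neg]
        intro h; exact hb (Subtype.ext h)
      · intro h; exact absurd (Finset.mem_univ _) h
    · rw [if_neg hg]
      apply Finset.sum_eq_zero
      intro b _
      rw [if_neg]
      intro h; exact hg (h ▸ b.2)
  have h2 : ∀ g, F g ((eH H u).coeff g) = if g ∈ H then F g u else 0 := by
    intro g
    rw [hco]
    by_cases hg : g ∈ H
    · simp [hg]
    · simp [hg, h0]
  rw [Finset.sum_congr rfl (fun g _ => h2 g), ← Finset.sum_filter]
  exact (Finset.sum_subtype (univ.filter (fun g => g ∈ H)) (by intro x; simp) (fun g => F g u))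

theorem exists_unit (n : ℕ) (h : ¬ p ∣ n) : ∃ u : ℤ_[p], (n : ℤ_[p]) * u = 1 := by
  have h1 : IsUnit (n : ℤ_[p]) := by
    rw [PadicInt.isUnit_iff, PadicInt.norm_natCast_eq_one_iff]
    exact (Nat.Prime.coprime_iff_not_dvd hp.out).2 h
  exact h1.exists_right_inv

end Cfsg.Agent.H2.NC
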